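import Cfsg.Agent.Lib.PSUBridge.Basic

/-!
# Identifying a group with a simple group

If the first projections of a set of pairs generate a simple group `P`, the pairs are matched along a map from a `G`-set
to a `P`-set on which `P` does not act trivially, and `G` is not larger than `P`, then `G` and `P` are isomorphic.
-/

set_option autoImplicit false

namespace Cfsg.Agent.Lib.PSUBridge

open Subgroup

variable {P G X Ω : Type*} [Group P] [Group G]

/-- The matching pairs. -/
def compat2 (π : G →* Equiv.Perm X) (ρ : P →* Equiv.Perm Ω) (L : X → Ω) : Subgroup (P × G) where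
  carrier := {c | ∀ x, L (π c.2 x) = ρ c.1 (L x)}
  mul_mem' := by
    intro a b ha hb x
    have h1 := ha (π b.2 x)
    have h2 := hb x
    show L (π (a.2 * b.2) x) = ρ (a.1 * b.1) (L x)
    rw [map_mul, map_mul]
    show L (π a.2 (π b.2 x)) = ρ a.1 (ρ b.1 (L x))
    rw [h1, h2]
  one_mem' := by
    intro x
    show L (π 1 x) = ρ 1 (L x)
    rw [map_one, map_one]
    rfl
  inv_mem' := by
    intro a ha x
    have h1 := ha ((π a.2)⁻¹ x)
    have h0 : π a.2 ((π a.2)⁻¹ x) = x := by simp
    rw [h0] at h1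
    show L (π a.2⁻¹ x) = ρ a.1⁻¹ (L x)
    rw [map_inv, map_inv, h1]
    simp

theorem bridge2 [Finite P] [IsSimpleGroup P] [Finite G] (π : G →* Equiv.Perm X) (ρ : P →* Equiv.Perm Ω) (L : X → Ω)
    (S : Set (P × G)) (hS : ∀ s ∈ S, ∀ x, L (π s.2 x) = ρ s.1 (L x))
    (hgen : closure (Prod.fst '' S) = ⊤)
    (a₀ : P) (x₀ : X) (hmove : ρ a₀ (L x₀) ≠ L x₀)
    (hc : Nat.card G ≤ Nat.card P) : Nonempty (G ≃* P) := by
  classical
  let C₀ : Subgroup (P × G) := closure S
  have hC : C₀ ≤ compat2 π ρ L := (closure_le _).2 (fun s hs => hS s hs)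
  let f₁ : C₀ →* P := (MonoidHom.fst P G).comp C₀.subtype
  let f₂ : C₀ →* G := (MonoidHom.snd P G).comp C₀.subtype
  have hf₁s : Function.Surjective f₁ := by
    have h1 : C₀.map (MonoidHom.fst P G) = ⊤ := by
      rw [MonoidHom.map_closure]
      exact hgen
    intro p
    have h2 : p ∈ C₀.map (MonoidHom.fst P G) := by rw [h1]; trivial
    obtain ⟨c, hc, rfl⟩ := h2
    exact ⟨⟨c, hc⟩, rfl⟩
  -- the elements paired with the identity form a normal subgroup
  let K : Subgroup P :=
    { carrier := {a | ((a, 1) : P × G) ∈ C₀}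
      one_mem' := C₀.one_mem
      mul_mem' := by
        intro a b ha hb
        have := C₀.mul_mem ha hb
        simpa using this
      inv_mem' := by
        intro a ha
        have := C₀.inv_mem ha
        simpa using this }
  have hKn : K.Normal := by
    constructor
    intro a ha p
    obtain ⟨⟨c, hc⟩, rfl⟩ := hf₁s p
    have h1 : c * (a, 1) * c⁻¹ ∈ C₀ := C₀.mul_mem (C₀.mul_mem hc ha) (C₀.inv_mem hc)
    show ((c.1 * a * c.1⁻¹, 1) : P × G) ∈ C₀
    have h2 : c * (a, 1) * c⁻¹ = ((c.1 * a * c.1⁻¹, 1) : P × G) := by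
      ext
      · rfl
      · simp
    rwa [h2] at h1
  have hKbot : K = ⊥ := by
    rcases IsSimpleGroup.eq_bot_or_eq_top_of_normal K hKn with h | h
    · exact h
    · exfalso
      have h1 : a₀ ∈ K := by rw [h]; trivial
      have h2 := hC h1 x₀
      have h3 : L x₀ = ρ a₀ (L x₀) := by
        have h4 : π 1 x₀ = x₀ := by rw [map_one]; rfl
        simpa [h4] using h2
      exact hmove h3.symm
  have hf₂i : Function.Injective f₂ := by
    rw [injective_iff_map_eq_one]
    rintro ⟨c, hc⟩ h
    have h1 : c.2 = 1 := h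
    have h2 : c.1 ∈ K := by
      show ((c.1, 1) : P × G) ∈ C₀
      have : ((c.1, 1) : P × G) = c := Prod.ext rfl h1.symm
      rw [this]
      exact hc
    rw [hKbot, mem_bot] at h2
    apply Subtype.ext
    exact Prod.ext h2 h1
  have hcard1 : Nat.card P ≤ Nat.card C₀ := Nat.card_le_card_of_surjective f₁ hf₁s
  have hcard2 : Nat.card C₀ ≤ Nat.card G := Nat.card_le_card_of_injective f₂ hf₂i
  have hf₁b : Function.Bijective f₁ := hf₁s.bijective_of_nat_card_le (by omega)
  have hf₂b : Function.Bijective f₂ := hf₂i.bijective_of_nat_card_le (by omega)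
  exact ⟨(MulEquiv.ofBijective f₂ hf₂b).symm.trans (MulEquiv.ofBijective f₁ hf₁b)⟩

end Cfsg.Agent.Lib.PSUBridge
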