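import Cfsg.Agent.Lib.SUSpec.HermAlg

/-!
# Identifying a permutation group with `PSU`

If a group `H` of permutations of `X` has the order of a group `P`, and the generators of `H` are matched with elements
of `P` along a map from `X` to a `P`-set which sees all of `H`, then `H` and `P` are isomorphic.

The `P`-sets used for `PSU` are the sets of vectors closed under nonzero scalars.
-/

set_option autoImplicit false

namespace Cfsg.Agent.Lib.PSUBridge

open Cfsg Subgroup

section Bridge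

variable {P X Ω : Type*} [Group P]

/-- The matching pairs. -/
def compat (ρ : P →* Equiv.Perm Ω) (L : X → Ω) : Subgroup (P × Equiv.Perm X) where
  carrier := {c | ∀ x, L (c.2 x) = ρ c.1 (L x)}
  mul_mem' := by
    intro a b ha hb x
    have h1 := ha (b.2 x)
    have h2 := hb x
    show L (a.2 (b.2 x)) = ρ (a.1 * b.1) (L x)
    rw [h1, h2, map_mul]
    rfl
  one_mem' := by
    intro x
    show L x = ρ 1 (L x)
    rw [map_one]
    rfl
  inv_mem' := by
    intro a ha x
    have h1 := ha (a.2⁻¹ x)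
    have h0 : a.2 (a.2⁻¹ x) = x := by simp
    rw [h0] at h1
    show L (a.2⁻¹ x) = ρ a.1⁻¹ (L x)
    rw [h1, map_inv]
    simp

theorem bridge [Finite P] (ρ : P →* Equiv.Perm Ω) (L : X → Ω) (H : Subgroup (Equiv.Perm X))
    (S : Set (P × Equiv.Perm X)) (hS : ∀ s ∈ S, ∀ x, L (s.2 x) = ρ s.1 (L x))
    (hH : H = closure (Prod.snd '' S))
    (hK : ∀ b ∈ H, (∀ x, L (b x) = L x) → b = 1)
    (hc : Nat.card P ≤ Nat.card H) : Nonempty (H ≃* P) := by
  classical
  let C₀ : Subgroup (P × Equiv.Perm X) := closure S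
  have hC : C₀ ≤ compat ρ L := (closure_le _).2 (fun s hs => hS s hs)
  have hmap : C₀.map (MonoidHom.snd P (Equiv.Perm X)) = H := by
    rw [hH, MonoidHom.map_closure]
    rfl
  have hsnd : ∀ c : C₀, c.1.2 ∈ H := fun c => by
    rw [← hmap]
    exact ⟨c.1, c.2, rfl⟩
  let f₂ : C₀ →* H :=
    { toFun := fun c => ⟨c.1.2, hsnd c⟩
      map_one' := rfl
      map_mul' := fun _ _ => rfl }
  let f₁ : C₀ →* P := (MonoidHom.fst P (Equiv.Perm X)).comp C₀.subtype
  have hf₂s : Function.Surjective f₂ := by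
    rintro ⟨b, hb⟩
    rw [← hmap] at hb
    obtain ⟨c, hc, rfl⟩ := hb
    exact ⟨⟨c, hc⟩, rfl⟩
  have hf₁i : Function.Injective f₁ := by
    rw [injective_iff_map_eq_one]
    intro c hc
    have h1 : c.1.1 = 1 := hc
    have h2 := hC c.2
    have h3 : ∀ x, L (c.1.2 x) = L x := by
      intro x
      have := h2 x
      rw [h1, map_one] at this
      exact this
    have h4 := hK _ (hsnd c) h3
    apply Subtype.ext
    exact Prod.ext h1 h4
  have hfin : Finite C₀ := Finite.of_injective f₁ hf₁i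
  have hcard1 : Nat.card C₀ ≤ Nat.card P := Nat.card_le_card_of_injective f₁ hf₁i
  have hfinH : Finite H := Finite.of_surjective f₂ hf₂s
  have hcard2 : Nat.card H ≤ Nat.card C₀ := Nat.card_le_card_of_surjective f₂ hf₂s
  have hf₁b : Function.Bijective f₁ := (Function.Injective.bijective_of_nat_card_le hf₁i (by omega))
  have hf₂b : Function.Bijective f₂ := (Function.Surjective.bijective_of_nat_card_le hf₂s (by omega))
  exact ⟨(MulEquiv.ofBijective f₂ hf₂b).symm.trans (MulEquiv.ofBijective f₁ hf₁b)⟩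

end Bridge

section Sets

variable {F : Type*} [Field F] {n : ℕ} {q : ℕ}

/-- The sets of vectors closed under nonzero scalars. -/
def ScSet (n : ℕ) (F : Type*) [Field F] : Type _ :=
  {T : Set (Fin n → F) // ∀ c : F, c ≠ 0 → ∀ v ∈ T, c • v ∈ T}

/-- The action of a matrix group element on vectors. -/
def actV (g : ↥(Cfsg.SU n F q)) (v : Fin n → F) : Fin n → F :=
  ((g.1 : Matrix.SpecialLinearGroup (Fin n) F) : Matrix (Fin n) (Fin n) F).mulVec v

theorem actV_mul (g h : ↥(Cfsg.SU n F q)) (v : Fin n → F) : actV (g * h) v = actV g (actV h v) := by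
  show ((g.1 : Matrix.SpecialLinearGroup (Fin n) F) * (h.1 : Matrix.SpecialLinearGroup (Fin n) F) :
    Matrix.SpecialLinearGroup (Fin n) F).1.mulVec v = _
  rw [Matrix.SpecialLinearGroup.coe_mul, ← Matrix.mulVec_mulVec]
  rfl

theorem actV_one (v : Fin n → F) : actV (1 : ↥(Cfsg.SU n F q)) v = v := by
  show ((1 : Matrix.SpecialLinearGroup (Fin n) F) : Matrix (Fin n) (Fin n) F).mulVec v = v
  rw [Matrix.SpecialLinearGroup.coe_one, Matrix.one_mulVec]

theorem actV_smul (g : ↥(Cfsg.SU n F q)) (c : F) (v : Fin n → F) : actV g (c • v) = c • actV g v := by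
  show ((g.1 : Matrix.SpecialLinearGroup (Fin n) F) : Matrix (Fin n) (Fin n) F).mulVec (c • v) = _
  rw [Matrix.mulVec_smul]
  rfl

theorem actV_add (g : ↥(Cfsg.SU n F q)) (v w : Fin n → F) : actV g (v + w) = actV g v + actV g w := by
  show ((g.1 : Matrix.SpecialLinearGroup (Fin n) F) : Matrix (Fin n) (Fin n) F).mulVec (v + w) = _
  rw [Matrix.mulVec_add]
  rfl

/-- The image of a closed set. -/
def actS (g : ↥(Cfsg.SU n F q)) (T : ScSet n F) : ScSet n F :=
  ⟨actV g '' T.1, by
    rintro c hc _ ⟨v, hv, rfl⟩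
    exact ⟨c • v, T.2 c hc v hv, actV_smul g c v⟩⟩

theorem actS_coe (g : ↥(Cfsg.SU n F q)) (T : ScSet n F) : (actS g T).1 = actV g '' T.1 := rfl

theorem actS_mul (g h : ↥(Cfsg.SU n F q)) (T : ScSet n F) : actS (g * h) T = actS g (actS h T) := by
  apply Subtype.ext
  ext v
  simp only [actS_coe, Set.mem_image, exists_exists_and_eq_and, actV_mul]

theorem actS_one (T : ScSet n F) : actS (1 : ↥(Cfsg.SU n F q)) T = T := by
  apply Subtype.ext
  ext v
  simp only [actS_coe, Set.mem_image, actV_one, exists_eq_right]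

/-- The action on closed sets. -/
def rho0 : ↥(Cfsg.SU n F q) →* Equiv.Perm (ScSet n F) where
  toFun g :=
    { toFun := actS g
      invFun := actS g⁻¹
      left_inv := fun T => by rw [← actS_mul, inv_mul_cancel, actS_one]
      right_inv := fun T => by rw [← actS_mul, mul_inv_cancel, actS_one] }
  map_one' := by
    ext T
    simp only [Equiv.coe_fn_mk, actS_one]
    rfl
  map_mul' g h := by
    ext T
    simp only [Equiv.coe_fn_mk, actS_mul]
    rfl

theorem rho0_apply (g : ↥(Cfsg.SU n F q)) (T : ScSet n F) : rho0 g T = actS g T := rfl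

/-- The centre acts trivially. -/
theorem rho0_center [Fintype F] (hF : Fintype.card F = q ^ 2) (hn : 2 ≤ n) (z : ↥(Cfsg.SU n F q))
    (hz : z ∈ Subgroup.center ↥(Cfsg.SU n F q)) : rho0 z = 1 := by
  obtain ⟨a, ha⟩ := Cfsg.Agent.Lib.SUSpec.HermAlg.scalar_of_center hF hn hz
  have ha' : ∀ x, actV z x = a • x := ha
  have hinv : ∀ x, actV z⁻¹ (actV z x) = x := fun x => by
    rw [← actV_mul, inv_mul_cancel, actV_one]
  have ha0 : a ≠ 0 := by
    rintro rfl
    have h1 : ∀ x : Fin n → F, x = 0 := fun x => by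
      have h2 := hinv x
      rw [ha', zero_smul] at h2
      have h3 := hinv 0
      rw [ha', zero_smul] at h3
      rw [← h2, h3]
    have h4 := congrFun (h1 (fun _ => 1)) ⟨0, by omega⟩
    exact one_ne_zero h4
  ext T
  show actS z T = T
  apply Subtype.ext
  ext v
  rw [actS_coe]
  constructor
  · rintro ⟨w, hw, rfl⟩
    rw [ha']
    exact T.2 a ha0 w hw
  · intro hv
    refine ⟨a⁻¹ • v, T.2 _ (inv_ne_zero ha0) v hv, ?_⟩
    rw [ha', smul_smul, mul_inv_cancel₀ ha0, one_smul]

/-- The action of `PSU` on closed sets. -/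
noncomputable def rho [Fintype F] (hF : Fintype.card F = q ^ 2) (hn : 2 ≤ n) :
    Cfsg.PSU n F q →* Equiv.Perm (ScSet n F) :=
  QuotientGroup.lift _ rho0 (fun z hz => rho0_center hF hn z hz)

theorem rho_mk [Fintype F] (hF : Fintype.card F = q ^ 2) (hn : 2 ≤ n) (g : ↥(Cfsg.SU n F q)) (T : ScSet n F) :
    rho hF hn (QuotientGroup.mk g) T = actS g T := rfl

/-- The span of two vectors. -/
def Sp (a b : Fin n → F) : ScSet n F :=
  ⟨{v | ∃ s t : F, v = s • a + t • b}, by
    rintro c - _ ⟨s, t, rfl⟩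
    exact ⟨c * s, c * t, by rw [smul_add, smul_smul, smul_smul]⟩⟩

theorem mem_Sp {a b v : Fin n → F} : v ∈ (Sp a b).1 ↔ ∃ s t : F, v = s • a + t • b := Iff.rfl

theorem left_mem_Sp (a b : Fin n → F) : a ∈ (Sp a b).1 := ⟨1, 0, by simp⟩

theorem right_mem_Sp (a b : Fin n → F) : b ∈ (Sp a b).1 := ⟨0, 1, by simp⟩

theorem Sp_le {a b a' b' : Fin n → F} (h1 : a ∈ (Sp a' b').1) (h2 : b ∈ (Sp a' b').1) {v : Fin n → F}
    (hv : v ∈ (Sp a b).1) : v ∈ (Sp a' b').1 := by
  obtain ⟨s, t, rfl⟩ := hv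
  obtain ⟨s1, t1, rfl⟩ := h1
  obtain ⟨s2, t2, rfl⟩ := h2
  refine ⟨s * s1 + t * s2, s * t1 + t * t2, ?_⟩
  ext i
  simp only [Pi.add_apply, Pi.smul_apply, smul_eq_mul]
  ring

/-- Equality of spans, from the four memberships. -/
theorem Sp_eq {a b a' b' : Fin n → F} (h1 : a ∈ (Sp a' b').1) (h2 : b ∈ (Sp a' b').1)
    (h3 : a' ∈ (Sp a b).1) (h4 : b' ∈ (Sp a b).1) : Sp a b = Sp a' b' := by
  apply Subtype.ext
  ext v
  exact ⟨fun hv => Sp_le h1 h2 hv, fun hv => Sp_le h3 h4 hv⟩

/-- The image of a span. -/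
theorem actS_Sp (g : ↥(Cfsg.SU n F q)) (a b : Fin n → F) : actS g (Sp a b) = Sp (actV g a) (actV g b) := by
  apply Subtype.ext
  ext v
  rw [actS_coe]
  constructor
  · rintro ⟨_, ⟨s, t, rfl⟩, rfl⟩
    exact ⟨s, t, by rw [actV_add, actV_smul, actV_smul]⟩
  · rintro ⟨s, t, rfl⟩
    exact ⟨s • a + t • b, ⟨s, t, rfl⟩, by rw [actV_add, actV_smul, actV_smul]⟩

/-- A vector in a span of two isotropic mutually perpendicular vectors is perpendicular to them. -/
theorem herm_of_mem_Sp {a b v c : Fin n → F} (hv : v ∈ (Sp a b).1)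
    (h1 : Cfsg.hermForm n F q a c = 0) (h2 : Cfsg.hermForm n F q b c = 0) :
    Cfsg.hermForm n F q v c = 0 := by
  obtain ⟨s, t, rfl⟩ := hv
  have : Cfsg.hermForm n F q (s • a + t • b) c =
      s * Cfsg.hermForm n F q a c + t * Cfsg.hermForm n F q b c := by
    unfold Cfsg.hermForm
    rw [Finset.mul_sum, Finset.mul_sum, ← Finset.sum_add_distrib]
    apply Finset.sum_congr rfl
    intro i _
    simp only [Pi.add_apply, Pi.smul_apply, smul_eq_mul]
    ring
  rw [this, h1, h2]
  ring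

end Sets

end Cfsg.Agent.Lib.PSUBridge
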